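import Cfsg.Agent.Lib.ZStar.D8Char
import Cfsg.Agent.Lib.ZStar.Inv
import Cfsg.Agent.Lib.Trans.Thompson
import Cfsg.Agent.Lib.Local.Isolated

/-! # Suzuki's theorem: an involution centralizer dihedral of order 8 -/

set_option autoImplicit false
set_option linter.unusedSectionVars false
set_option linter.unusedVariables false
set_option maxRecDepth 4000

namespace CfsgLib.ZS

open Cfsg CfsgLib.Char DihedralGroup CfsgLib.Trans
open scoped ComplexConjugate

universe u

theorem d8_center : ∀ x : DihedralGroup 4, (∀ y, x * y = y * x) → x = 1 ∨ x = r 2 := by decide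

theorem d8_sq_cases : ∀ x : DihedralGroup 4, x * x = 1 → x = 1 ∨ x = r 2 ∨ ∃ i, x = sr i := by decide

theorem d8_comm_r1 : ∀ x : DihedralGroup 4, x * r 1 = r 1 * x → ∃ i, x = r i := by decide

theorem d8_inv_r1 : ∀ x : DihedralGroup 4, x * x = 1 → (x * r 1) * (x * r 1) = 1 → ∃ i, x = sr i := by decide

theorem d8_r_sq : ∀ i : ZMod 4, (r i : DihedralGroup 4) * r i = 1 → r i ≠ 1 → r i = (r 2 : DihedralGroup 4) := by decide

theorem d8_refl_inv : ((sr 0 : DihedralGroup 4)) * r 1 * (sr 0)⁻¹ = (r 1)⁻¹ := by decide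

theorem d8_r1_sq : (r 1 : DihedralGroup 4) * r 1 = r 2 := by decide

theorem d8_sr_distinct : ∀ i j : ZMod 4, (sr i : DihedralGroup 4) = sr j → i = j := by decide

/-- The number of elements conjugating `t` to a given conjugate. -/
theorem card_conj_fiber {G : Type u} [Group G] [Fintype G] [DecidableEq G] (t s : G) (h : IsConj t s) :
    (Finset.univ.filter (fun g : G => g * t * g⁻¹ = s)).card = Nat.card (Subgroup.centralizer ({t} : Set G)) := by
  classical
  obtain ⟨g₀, rfl⟩ := isConj_iff.1 h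
  have hcomm : ∀ g : G, g * t * g⁻¹ = g₀ * t * g₀⁻¹ ↔ g₀⁻¹ * g ∈ Subgroup.centralizer ({t} : Set G) := by
    intro g
    rw [Subgroup.mem_centralizer_singleton_iff]
    constructor
    · intro h1
      have h2 : g * t = g₀ * t * g₀⁻¹ * g := by
        rw [← h1]; group
      calc g₀⁻¹ * g * t = g₀⁻¹ * (g * t) := by group
        _ = g₀⁻¹ * (g₀ * t * g₀⁻¹ * g) := by rw [h2]
        _ = t * (g₀⁻¹ * g) := by group
    · intro h1
      have h2 : g * t = g₀ * (t * (g₀⁻¹ * g)) := by
        rw [← h1]; group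
      rw [h2]
      group
  have e : {g : G // g * t * g⁻¹ = g₀ * t * g₀⁻¹} ≃ Subgroup.centralizer ({t} : Set G) :=
    { toFun := fun g => ⟨g₀⁻¹ * g, (hcomm g).1 g.2⟩
      invFun := fun c => ⟨g₀ * c, (hcomm _).2 (by simpa using c.2)⟩
      left_inv := fun g => Subtype.ext (by simp)
      right_inv := fun c => Subtype.ext (by simp) }
  calc (Finset.univ.filter (fun g : G => g * t * g⁻¹ = g₀ * t * g₀⁻¹)).card
      = Fintype.card {g : G // g * t * g⁻¹ = g₀ * t * g₀⁻¹} := (Fintype.card_subtype _).symm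
    _ = Nat.card {g : G // g * t * g⁻¹ = g₀ * t * g₀⁻¹} := (Nat.card_eq_fintype_card).symm
    _ = _ := Nat.card_congr e

section Main

variable {G : Type u} [Group G] [Finite G]

theorem comm_of_sq {a b : G} (ha : a * a = 1) (hb : b * b = 1) (h : (a * b) * (a * b) = 1) : a * b = b * a := by
  have h1 : (a * b)⁻¹ = a * b := inv_of_sq h
  rw [mul_inv_rev, inv_of_sq ha, inv_of_sq hb] at h1
  exact h1.symm

/-- **Suzuki's theorem**: a group without subgroups of index two and with an involution whose centralizer is dihedral of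
order eight has order 168 or 360. -/
theorem d8_order (hG : ∀ H : Subgroup G, H.index ≠ 2) (t : G) (ht : orderOf t = 2)
    (e : Subgroup.centralizer ({t} : Set G) ≃* DihedralGroup 4) : Nat.card G = 168 ∨ Nat.card G = 360 := by
  classical
  haveI : Fintype G := Fintype.ofFinite G
  set C : Subgroup G := Subgroup.centralizer ({t} : Set G) with hC
  have htt : t * t = 1 := sq_of_order ht
  have ht1 : t ≠ 1 := by
    intro h
    rw [h, orderOf_one] at ht
    omega
  have htC : t ∈ C := Subgroup.mem_centralizer_singleton_iff.2 rfl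
  have hmemC : ∀ g : G, g ∈ C ↔ g * t = t * g := fun g => Subgroup.mem_centralizer_singleton_iff
  let ιh : DihedralGroup 4 →* G := C.subtype.comp e.symm.toMonoidHom
  have hιinj : Function.Injective ιh := fun x y h => e.symm.injective (Subtype.ext h)
  have hιC : ∀ x, ιh x ∈ C := fun x => (e.symm x).2
  have hιsurj : ∀ g ∈ C, ∃ x, ιh x = g := by
    intro g hg
    refine ⟨e ⟨g, hg⟩, ?_⟩
    change ((e.symm (e ⟨g, hg⟩) : C) : G) = g
    simp
  have hcard : Nat.card C = 8 := by
    rw [Nat.card_congr e.toEquiv, DihedralGroup.nat_card]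
  -- the central involution
  have hιt : ιh (r 2) = t := by
    set x := e ⟨t, htC⟩ with hx
    have hx1 : ιh x = t := by
      change ((e.symm (e ⟨t, htC⟩) : C) : G) = t
      simp
    have hxc : ∀ y, x * y = y * x := by
      intro y
      apply hιinj
      rw [map_mul, map_mul, hx1]
      exact ((hmemC (ιh y)).1 (hιC y)).symm
    rcases d8_center x hxc with h | h
    · exfalso
      rw [h, map_one] at hx1
      exact ht1 hx1.symm
    · rw [← h]
      exact hx1
  have hcentral : ∀ w ∈ C, (∀ y ∈ C, w * y = y * w) → w = 1 ∨ w = t := by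
    intro w hw hc
    obtain ⟨x, rfl⟩ := hιsurj w hw
    have hxc : ∀ y, x * y = y * x := fun y => hιinj (by
      rw [map_mul, map_mul]
      exact hc _ (hιC y))
    rcases d8_center x hxc with rfl | rfl
    · left; simp
    · right; exact hιt
  -- the centralizer is a Sylow subgroup
  have hCp : IsPGroup 2 C := IsPGroup.iff_card.2 ⟨3, by rw [hcard]; norm_num⟩
  obtain ⟨S, hS⟩ := hCp.exists_le_sylow
  have hSC : (S : Subgroup G) = C := by
    by_contra hne
    have hlt : C < S := lt_of_le_of_ne hS (Ne.symm hne)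
    obtain ⟨g, hgS, hgC, hgN⟩ := CfsgLib.Local.exists_normalizing S.2 hlt
    apply hgC
    rw [hmemC]
    have h1 : g * t * g⁻¹ ∈ C := (Subgroup.mem_normalizer_iff.1 hgN t).1 htC
    have h2 : ∀ y ∈ C, (g * t * g⁻¹) * y = y * (g * t * g⁻¹) := by
      intro y hy
      have h3 : g⁻¹ * y * g ∈ C := by
        have := (Subgroup.mem_normalizer_iff.1 (Subgroup.inv_mem _ hgN) y).1 hy
        simpa using this
      have h4 := (hmemC _).1 h3
      calc (g * t * g⁻¹) * y = g * (t * (g⁻¹ * y * g)) * g⁻¹ := by group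
        _ = g * ((g⁻¹ * y * g) * t) * g⁻¹ := by rw [h4]
        _ = y * (g * t * g⁻¹) := by group
    rcases hcentral _ h1 h2 with h5 | h5
    · exfalso
      apply ht1
      have : t = g⁻¹ * (g * t * g⁻¹) * g := by group
      rw [this, h5]
      group
    · calc g * t = (g * t * g⁻¹) * g := by group
        _ = t * g := by rw [h5]
  have hcardS : Nat.card (S : Subgroup G) = 8 := by rw [hSC]; exact hcard
  obtain ⟨mN, hmN⟩ : ∃ mN : ℕ, mN = (S : Subgroup G).index := ⟨_, rfl⟩
  have hGcard : Nat.card G = 8 * mN := by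
    rw [hmN, ← hcardS]
    exact (Subgroup.card_mul_index _).symm
  have hmodd : Odd mN := by
    rw [← Nat.not_even_iff_odd, even_iff_two_dvd, hmN]
    exact S.not_dvd_index
  -- the element of order four
  set ρ : G := ιh (r 1) with hρ
  have hρρ : ρ * ρ = t := by rw [hρ, ← map_mul, d8_r1_sq, hιt]
  have hρo : orderOf ρ = 4 := by
    rw [hρ, orderOf_injective ιh hιinj, orderOf_r_one]
  have hsr : ∀ i, orderOf (ιh (sr i)) = 2 := fun i => by
    rw [orderOf_injective ιh hιinj, orderOf_sr]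
  have hρC : ρ ∈ C := hιC _
  have hQS : Subgroup.zpowers ρ ≤ (S : Subgroup G) := by
    rw [Subgroup.zpowers_le, hSC]; exact hρC
  have hQc : Nat.card (Subgroup.zpowers ρ) = 4 := by rw [Nat.card_zpowers, hρo]
  have hQi : (Subgroup.zpowers ρ).relIndex (S : Subgroup G) = 2 := by
    have := card_eq_relIndex_mul hQS
    rw [hcardS, hQc] at this
    omega
  have hzp : ∀ k : ℤ, ρ ^ k = ιh (r k) := by
    intro k
    rw [hρ, ← map_zpow, r_one_zpow]
  have hrefl : ∀ i, IsConj (ιh (sr i)) t := by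
    intro i
    have huQ : ιh (sr i) ∉ Subgroup.zpowers ρ := by
      intro h
      obtain ⟨k, hk⟩ := Subgroup.mem_zpowers_iff.1 h
      rw [hzp] at hk
      have := hιinj hk
      cases this
    rcases thompson_transfer S _ hQS hQi _ (hsr i) (by rw [hSC]; exact hιC _) huQ with ⟨M, -, hM, -⟩ | ⟨g, hg⟩
    · exact absurd hM (hG M)
    · obtain ⟨k, hk⟩ := Subgroup.mem_zpowers_iff.1 hg
      rw [hzp] at hk
      have h1 : orderOf (ιh (r k)) = 2 := by
        rw [hk, CfsgLib.Block.orderOf_conj', hsr]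
      have h2 : ιh (r k) * ιh (r k) = 1 := sq_of_order h1
      have h3 : (r k : DihedralGroup 4) * r k = 1 := hιinj (by rw [map_mul, h2, map_one])
      have h4 : (r k : DihedralGroup 4) ≠ 1 := by
        intro h5
        rw [h5, map_one, orderOf_one] at h1
        omega
      have h5 := d8_r_sq _ h3 h4
      rw [h5, hιt] at hk
      exact isConj_iff.2 ⟨g, hk.symm⟩
  have hinvol : ∀ u : G, orderOf u = 2 → IsConj u t := by
    intro u hu
    obtain ⟨Q', hQ'⟩ := exists_sylow_mem' (g := u) (k := 1) (by rw [hu]; rfl)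
    obtain ⟨g, hg⟩ := MulAction.exists_smul_eq G Q' S
    have hwS : g * u * g⁻¹ ∈ C := by
      rw [← hSC, ← hg, Sylow.coe_subgroup_smul]
      exact ⟨u, hQ', rfl⟩
    obtain ⟨x, hx⟩ := hιsurj _ hwS
    have hw2 : orderOf (ιh x) = 2 := by
      rw [hx, CfsgLib.Block.orderOf_conj', hu]
    have h3 : x * x = 1 := hιinj (by rw [map_mul, sq_of_order hw2, map_one])
    have huw : IsConj u (g * u * g⁻¹) := isConj_iff.2 ⟨g, rfl⟩
    rcases d8_sq_cases x h3 with rfl | rfl | ⟨i, rfl⟩
    · rw [map_one, orderOf_one] at hw2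
      omega
    · rw [hιt] at hx
      rw [← hx] at huw
      exact huw
    · rw [← hx] at huw
      exact huw.trans (hrefl i)
  -- the centralizer of `ρ`
  have hCρ : Subgroup.centralizer ({ρ} : Set G) = Subgroup.zpowers ρ := by
    apply le_antisymm
    · intro g hg
      have h1 : g * ρ = ρ * g := Subgroup.mem_centralizer_singleton_iff.1 hg
      have h2 : g ∈ C := by
        rw [hmemC, ← hρρ]
        calc g * (ρ * ρ) = (g * ρ) * ρ := by group
          _ = (ρ * g) * ρ := by rw [h1]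
          _ = ρ * (g * ρ) := by group
          _ = ρ * (ρ * g) := by rw [h1]
          _ = ρ * ρ * g := by group
      obtain ⟨x, rfl⟩ := hιsurj g h2
      have h3 : x * r 1 = r 1 * x := hιinj (by rw [map_mul, map_mul]; exact h1)
      obtain ⟨i, rfl⟩ := d8_comm_r1 x h3
      refine Subgroup.mem_zpowers_iff.2 ⟨(i.val : ℤ), ?_⟩
      rw [hzp]
      congr 2
      simp
    · rw [Subgroup.zpowers_le]
      exact Subgroup.mem_centralizer_singleton_iff.2 rfl
  have hcardρ : Nat.card (Subgroup.centralizer ({ρ} : Set G)) = 4 := by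
    rw [hCρ]; exact hQc
  have hcardt : Nat.card (Subgroup.centralizer ({t} : Set G)) = 8 := hcard
  -- the reflections
  set R₀ : Finset G := Finset.univ.image (fun i : ZMod 4 => ιh (sr i)) with hR₀
  have hmemR : ∀ s : G, s ∈ R₀ ↔ ∃ i : ZMod 4, ιh (sr i) = s := by
    intro s
    simp [hR₀]
  have hR₀card : R₀.card = 4 := by
    rw [hR₀, Finset.card_image_of_injective]
    · rw [Finset.card_univ, ZMod.card]
    · intro i j h
      exact d8_sr_distinct i j (hιinj h)
  have hconjsq : ∀ g : G, (g * t * g⁻¹) * (g * t * g⁻¹) = 1 := by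
    intro g
    have : (g * t * g⁻¹) * (g * t * g⁻¹) = g * (t * t) * g⁻¹ := by group
    rw [this, htt]
    group
  have hconjne : ∀ g : G, g * t * g⁻¹ ≠ 1 := by
    intro g h
    apply ht1
    have : t = g⁻¹ * (g * t * g⁻¹) * g := by group
    rw [this, h]
    group
  have hiff1 : ∀ g : G, IsConj (g * t * g⁻¹ * t) t ↔ g * t * g⁻¹ ∈ R₀ := by
    intro g
    set s := g * t * g⁻¹ with hs
    have hss := hconjsq g
    rw [hmemR]
    constructor
    · intro h
      obtain ⟨c, hc⟩ := isConj_iff.1 h.symm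
      have h1 : orderOf (s * t) = 2 := by
        rw [← hc, CfsgLib.Block.orderOf_conj', ht]
      have h2 : (s * t) * (s * t) = 1 := sq_of_order h1
      have h3 : s * t = t * s := comm_of_sq hss htt h2
      obtain ⟨x, hx⟩ := hιsurj s ((hmemC s).2 h3)
      have h4 : x * x = 1 := hιinj (by rw [map_mul, hx, hss, map_one])
      rcases d8_sq_cases x h4 with rfl | rfl | ⟨i, rfl⟩
      · exfalso
        rw [map_one] at hx
        exact hconjne g hx.symm
      · exfalso
        rw [hιt] at hx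
        rw [← hx, htt, orderOf_one] at h1
        omega
      · exact ⟨i, hx⟩
    · rintro ⟨i, hi⟩
      rw [← hi, ← hιt, ← map_mul, sr_mul_r]
      rw [hιt]
      exact hinvol _ (hsr _)
  have hiff2 : ∀ g : G, IsConj (g * t * g⁻¹ * ρ) t ↔ g * t * g⁻¹ ∈ R₀ := by
    intro g
    set s := g * t * g⁻¹ with hs
    have hss := hconjsq g
    rw [hmemR]
    constructor
    · intro h
      obtain ⟨c, hc⟩ := isConj_iff.1 h.symm
      have h1 : orderOf (s * ρ) = 2 := by
        rw [← hc, CfsgLib.Block.orderOf_conj', ht]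
      have h2 : (s * ρ) * (s * ρ) = 1 := sq_of_order h1
      have h3 : s * ρ * s = ρ⁻¹ := by
        rw [eq_inv_iff_mul_eq_one, ← h2]
        group
      have h4 : s * t = t * s := by
        have h5 : s * t * s = t := by
          rw [← hρρ]
          calc s * (ρ * ρ) * s = s * ρ * (s * s) * ρ * s := by rw [hss]; group
            _ = (s * ρ * s) * (s * ρ * s) := by group
            _ = ρ⁻¹ * ρ⁻¹ := by rw [h3]
            _ = (ρ * ρ)⁻¹ := by group
            _ = ρ * ρ := by rw [hρρ]; exact inv_of_sq htt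
        calc s * t = s * t * (s * s) := by rw [hss, mul_one]
          _ = (s * t * s) * s := by group
          _ = t * s := by rw [h5]
      obtain ⟨x, hx⟩ := hιsurj s ((hmemC s).2 h4)
      have h6 : x * x = 1 := hιinj (by rw [map_mul, hx, hss, map_one])
      have h7 : (x * r 1) * (x * r 1) = 1 := hιinj (by
        rw [map_mul, map_mul, hx, map_one]
        exact h2)
      obtain ⟨i, rfl⟩ := d8_inv_r1 x h6 h7
      exact ⟨i, hx⟩
    · rintro ⟨i, hi⟩
      rw [← hi, hρ, ← map_mul, sr_mul_r]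
      exact hinvol _ (hsr _)
  have hcount : (Finset.univ.filter (fun g : G => g * t * g⁻¹ ∈ R₀)).card = 32 := by
    have h1 := Finset.card_eq_sum_card_fiberwise (f := fun g : G => g * t * g⁻¹)
      (s := Finset.univ.filter (fun g : G => g * t * g⁻¹ ∈ R₀)) (t := R₀) (fun g hg => (Finset.mem_filter.1 hg).2)
    rw [h1]
    have h2 : ∀ b ∈ R₀, ((Finset.univ.filter (fun g : G => g * t * g⁻¹ ∈ R₀)).filter (fun g => g * t * g⁻¹ = b)).card = 8 := by
      intro b hb
      have h3 : (Finset.univ.filter (fun g : G => g * t * g⁻¹ ∈ R₀)).filter (fun g => g * t * g⁻¹ = b) =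
          Finset.univ.filter (fun g : G => g * t * g⁻¹ = b) := by
        ext g
        simp only [Finset.mem_filter, Finset.mem_univ, true_and]
        constructor
        · exact fun h => h.2
        · intro h
          exact ⟨h ▸ hb, h⟩
      rw [h3]
      obtain ⟨i, rfl⟩ := (hmemR b).1 hb
      rw [card_conj_fiber t _ (hrefl i).symm]
      exact hcardt
    rw [Finset.sum_congr rfl h2, Finset.sum_const, hR₀card]
    norm_num
  have hsum : ∑ g : G, (if g * t * g⁻¹ ∈ R₀ then (8 : ℂ) else 0) = 256 := by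
    rw [Finset.sum_ite, Finset.sum_const_zero, add_zero, Finset.sum_const, hcount]
    norm_num
  -- characters
  have hρ4 : ρ ^ 4 = 1 := by
    rw [← hρo]; exact pow_orderOf_eq_one ρ
  have hρ2 : ρ ^ 2 = t := by rw [pow_two, hρρ]
  have hreal : ∀ ψ : IrrCharacter G, (ψ : G → ℂ) ρ⁻¹ = (ψ : G → ℂ) ρ := by
    intro ψ
    have h1 := ψ.2.isClassFunction ρ (ιh (sr 0))
    have h2 : ιh (sr 0) * ρ * (ιh (sr 0))⁻¹ = ρ⁻¹ := by
      rw [hρ, ← map_inv, ← map_mul, ← map_mul, d8_refl_inv, map_inv]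
    rw [h2] at h1
    exact h1
  choose a b d ha hb hd hd0 hab hdb using fun ψ : IrrCharacter G =>
    char_values_of_real_four ψ.2.isCharacter ρ hρ4 (hreal ψ)
  have ha' : ∀ ψ : IrrCharacter G, (ψ : G → ℂ) t = (a ψ : ℂ) := by
    intro ψ
    have := ha ψ
    rwa [hρ2] at this
  have hdpos : ∀ ψ, 0 < d ψ := by
    intro ψ
    have h1 := ψ.2.map_one_ne_zero
    rw [hd ψ] at h1
    have h2 : d ψ ≠ 0 := fun h => h1 (by rw [h]; simp)
    have h3 := hd0 ψ
    omega
  have hdq : ∀ ψ : IrrCharacter G, (d ψ : ℂ) ≠ 0 := by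
    intro ψ
    have := (hdpos ψ).ne'
    exact_mod_cast this
  let i₀ : IrrCharacter G := ⟨fun _ => 1, isIrrCharacter_one⟩
  have h0a : a i₀ = 1 := by
    have h1 := ha' i₀
    have h2 : ((a i₀ : ℤ) : ℂ) = ((1 : ℤ) : ℂ) := by
      rw [← h1]; simp [i₀]
    exact_mod_cast h2
  have h0b : b i₀ = 1 := by
    have h1 := hb i₀
    have h2 : ((b i₀ : ℤ) : ℂ) = ((1 : ℤ) : ℂ) := by
      rw [← h1]; simp [i₀]
    exact_mod_cast h2
  have h0d : d i₀ = 1 := by
    have h1 := hd i₀
    have h2 : ((d i₀ : ℤ) : ℂ) = ((1 : ℤ) : ℂ) := by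
      rw [← h1]; simp [i₀]
    exact_mod_cast h2
  have hconj : ∀ z : ℤ, (starRingEnd ℂ) (z : ℂ) = z := fun z => by simp
  have hnc1 : ¬ IsConj (1 : G) t := by
    rw [isConj_one_right]
    exact ht1
  have hnc2 : ¬ IsConj (1 : G) ρ := by
    rw [isConj_one_right]
    intro h
    rw [h, orderOf_one] at hρo
    omega
  have hnc3 : ¬ IsConj t ρ := by
    intro h
    obtain ⟨c, hc⟩ := isConj_iff.1 h
    have h1 : orderOf ρ = orderOf t := by
      rw [← hc, CfsgLib.Block.orderOf_conj']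
    rw [hρo, ht] at h1
    omega
  have E0 : ∑ ψ, a ψ ^ 2 = 8 := by
    have h1 := column_orthogonality t t
    rw [if_pos (IsConj.refl t), hcardt] at h1
    have h2 : ((∑ ψ, a ψ ^ 2 : ℤ) : ℂ) = ((8 : ℤ) : ℂ) := by
      push_cast
      rw [← show ((8 : ℕ) : ℂ) = 8 by norm_num, ← h1]
      exact Finset.sum_congr rfl (fun ψ _ => by rw [ha' ψ, hconj]; ring)
    exact_mod_cast h2
  have E1 : ∑ ψ, b ψ ^ 2 = 4 := by
    have h1 := column_orthogonality ρ ρ
    rw [if_pos (IsConj.refl ρ), hcardρ] at h1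
    have h2 : ((∑ ψ, b ψ ^ 2 : ℤ) : ℂ) = ((4 : ℤ) : ℂ) := by
      push_cast
      rw [← show ((4 : ℕ) : ℂ) = 4 by norm_num, ← h1]
      exact Finset.sum_congr rfl (fun ψ _ => by rw [hb ψ, hconj]; ring)
    exact_mod_cast h2
  have E2 : ∑ ψ, a ψ * b ψ = 0 := by
    have h1 := column_orthogonality t ρ
    rw [if_neg hnc3] at h1
    have h2 : ((∑ ψ, a ψ * b ψ : ℤ) : ℂ) = ((0 : ℤ) : ℂ) := by
      push_cast
      rw [← h1]
      exact Finset.sum_congr rfl (fun ψ _ => by rw [ha' ψ, hb ψ, hconj])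
    exact_mod_cast h2
  have E3 : ∑ ψ, d ψ * a ψ = 0 := by
    have h1 := column_orthogonality (1 : G) t
    rw [if_neg hnc1] at h1
    have h2 : ((∑ ψ, d ψ * a ψ : ℤ) : ℂ) = ((0 : ℤ) : ℂ) := by
      push_cast
      rw [← h1]
      exact Finset.sum_congr rfl (fun ψ _ => by rw [hd ψ, ha' ψ, hconj])
    exact_mod_cast h2
  have E4 : ∑ ψ, d ψ * b ψ = 0 := by
    have h1 := column_orthogonality (1 : G) ρ
    rw [if_neg hnc2] at h1
    have h2 : ((∑ ψ, d ψ * b ψ : ℤ) : ℂ) = ((0 : ℤ) : ℂ) := by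
      push_cast
      rw [← h1]
      exact Finset.sum_congr rfl (fun ψ _ => by rw [hd ψ, hb ψ, hconj])
    exact_mod_cast h2
  have hGq : (Nat.card G : ℂ) = 8 * (mN : ℂ) := by
    rw [hGcard]; push_cast; ring
  have E5 : (8 * ((mN : ℤ) : ℚ)) * ∑ ψ, ((a ψ : ℤ) : ℚ) ^ 3 / ((d ψ : ℤ) : ℚ) = 256 := by
    have h1 := sum_irr_product t t t
    have h2 : ∀ g : G, (if IsConj (g * t * g⁻¹ * t) t then (Nat.card (Subgroup.centralizer ({t} : Set G)) : ℂ) else 0) =
        (if g * t * g⁻¹ ∈ R₀ then (8 : ℂ) else 0) := by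
      intro g
      by_cases h : g * t * g⁻¹ ∈ R₀
      · rw [if_pos h, if_pos ((hiff1 g).2 h), hcardt]
        norm_num
      · rw [if_neg h, if_neg (fun h' => h ((hiff1 g).1 h'))]
    rw [Finset.sum_congr rfl (fun g _ => h2 g), hsum, hGq] at h1
    have h3 : (((8 * ((mN : ℤ) : ℚ)) * ∑ ψ, ((a ψ : ℤ) : ℚ) ^ 3 / ((d ψ : ℤ) : ℚ) : ℚ) : ℂ) = ((256 : ℚ) : ℂ) := by
      push_cast
      rw [← show (256 : ℂ) = 256 by norm_num, ← h1]
      congr 1
      exact Finset.sum_congr rfl (fun ψ _ => by rw [ha' ψ, hconj, hd ψ]; ring)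
    exact_mod_cast h3
  have E6 : (8 * ((mN : ℤ) : ℚ)) * ∑ ψ, ((a ψ : ℤ) : ℚ) ^ 2 * ((b ψ : ℤ) : ℚ) / ((d ψ : ℤ) : ℚ) = 256 := by
    have h1 := sum_irr_product t ρ t
    have h2 : ∀ g : G, (if IsConj (g * t * g⁻¹ * ρ) t then (Nat.card (Subgroup.centralizer ({t} : Set G)) : ℂ) else 0) =
        (if g * t * g⁻¹ ∈ R₀ then (8 : ℂ) else 0) := by
      intro g
      by_cases h : g * t * g⁻¹ ∈ R₀
      · rw [if_pos h, if_pos ((hiff2 g).2 h), hcardt]
        norm_num
      · rw [if_neg h, if_neg (fun h' => h ((hiff2 g).1 h'))]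
    rw [Finset.sum_congr rfl (fun g _ => h2 g), hsum, hGq] at h1
    have h3 : (((8 * ((mN : ℤ) : ℚ)) * ∑ ψ, ((a ψ : ℤ) : ℚ) ^ 2 * ((b ψ : ℤ) : ℚ) / ((d ψ : ℤ) : ℚ) : ℚ) : ℂ) = ((256 : ℚ) : ℂ) := by
      push_cast
      rw [← show (256 : ℂ) = 256 by norm_num, ← h1]
      congr 1
      exact Finset.sum_congr rfl (fun ψ _ => by rw [ha' ψ, hb ψ, hconj, hd ψ]; ring)
    exact_mod_cast h3
  have hmpos : (0 : ℤ) < mN := by
    have : 0 < mN := hmodd.pos
    exact_mod_cast this
  have hmoddZ : Odd (mN : ℤ) := by exact_mod_cast hmodd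
  have hfinal := d8_core a b d hdpos hab hdb i₀ h0a h0b h0d E0 E1 E2 E3 E4 (mN : ℤ) hmpos hmoddZ E5 E6
  rw [hGcard]
  rcases hfinal with h | h
  · left
    have : mN = 21 := by exact_mod_cast h
    rw [this]
  · right
    have : mN = 45 := by exact_mod_cast h
    rw [this]

end Main

end CfsgLib.ZS
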