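import Mathlib

/-! # The arithmetic behind Suzuki's theorem on a dihedral centralizer of order 8 -/

set_option autoImplicit false
set_option linter.unusedSectionVars false
set_option linter.unusedVariables false

namespace CfsgLib.ZS

theorem d8_arith_plus (a m : ℤ) (ha : Odd a) (hm : Odd m) (hpos : 0 < a) (h : m * (a + 1) ^ 2 = 16 * a * (2 * a + 1)) :
    a = 3 ∧ m = 21 := by
  obtain ⟨c, rfl⟩ := ha
  have h1 : m * (c + 1) ^ 2 = 4 * (2 * c + 1) * (2 * (2 * c + 1) + 1) := by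
    have : m * (2 * c + 1 + 1) ^ 2 = 4 * (m * (c + 1) ^ 2) := by ring
    rw [this] at h
    linarith
  have hc : Even (c + 1) := by
    by_contra hne
    have hodd : Odd (c + 1) := Int.not_even_iff_odd.1 hne
    have : Odd (m * (c + 1) ^ 2) := hm.mul (hodd.pow)
    rw [h1] at this
    have h2 : Even (4 * (2 * c + 1) * (2 * (2 * c + 1) + 1)) := by
      exact ⟨2 * (2 * c + 1) * (2 * (2 * c + 1) + 1), by ring⟩
    exact (Int.not_even_iff_odd.2 this) h2
  obtain ⟨e, he⟩ := hc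
  have hc' : c = 2 * e - 1 := by linarith
  subst hc'
  have h2 : m * e ^ 2 = (4 * e - 1) * (8 * e - 1) := by
    have h3 : (2 * e - 1 + 1) = 2 * e := by ring
    rw [h3] at h1
    have h4 : 4 * (m * e ^ 2) = 4 * ((4 * e - 1) * (8 * e - 1)) := by
      have e1 : m * (2 * e) ^ 2 = 4 * (m * e ^ 2) := by ring
      have e2 : 4 * (2 * (2 * e - 1) + 1) * (2 * (2 * (2 * e - 1) + 1) + 1) = 4 * ((4 * e - 1) * (8 * e - 1)) := by ring
      linarith
    linarith
  have hdvd : e ∣ 1 := by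
    have h5 : (1 : ℤ) = m * e ^ 2 - (32 * e ^ 2 - 12 * e) := by rw [h2]; ring
    rw [h5]
    apply dvd_sub
    · exact Dvd.dvd.mul_left (dvd_pow_self e (by norm_num)) _
    · exact ⟨32 * e - 12, by ring⟩
  have hepos : 0 < e := by
    have : 0 < 2 * (2 * e - 1) + 1 := hpos
    omega
  have he1 : e = 1 := Int.eq_one_of_dvd_one hepos.le hdvd
  subst he1
  constructor
  · norm_num
  · linarith

theorem d8_arith_minus (a m : ℤ) (ha : Odd a) (hm : Odd m) (hpos : 0 < a) (h : m * (a - 1) ^ 2 = 16 * a * (2 * a - 1)) :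
    a = 5 ∧ m = 45 := by
  obtain ⟨c, rfl⟩ := ha
  have h1 : m * c ^ 2 = 4 * (2 * c + 1) * (2 * (2 * c + 1) - 1) := by
    have : m * (2 * c + 1 - 1) ^ 2 = 4 * (m * c ^ 2) := by ring
    rw [this] at h
    linarith
  have hc : Even c := by
    by_contra hne
    have hodd : Odd c := Int.not_even_iff_odd.1 hne
    have : Odd (m * c ^ 2) := hm.mul (hodd.pow)
    rw [h1] at this
    have h2 : Even (4 * (2 * c + 1) * (2 * (2 * c + 1) - 1)) := by
      exact ⟨2 * (2 * c + 1) * (2 * (2 * c + 1) - 1), by ring⟩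
    exact (Int.not_even_iff_odd.2 this) h2
  obtain ⟨e, he⟩ := hc
  have hc' : c = 2 * e := by linarith
  subst hc'
  have h2 : m * e ^ 2 = (4 * e + 1) * (8 * e + 1) := by
    have h4 : 4 * (m * e ^ 2) = 4 * ((4 * e + 1) * (8 * e + 1)) := by
      have e1 : m * (2 * e) ^ 2 = 4 * (m * e ^ 2) := by ring
      have e2 : 4 * (2 * (2 * e) + 1) * (2 * (2 * (2 * e) + 1) - 1) = 4 * ((4 * e + 1) * (8 * e + 1)) := by ring
      linarith
    linarith
  have hdvd : e ∣ 1 := by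
    have h5 : (1 : ℤ) = m * e ^ 2 - (32 * e ^ 2 + 12 * e) := by rw [h2]; ring
    rw [h5]
    apply dvd_sub
    · exact Dvd.dvd.mul_left (dvd_pow_self e (by norm_num)) _
    · exact ⟨32 * e + 12, by ring⟩
  have hepos : 0 ≤ e := by
    have : 0 < 2 * (2 * e) + 1 := hpos
    omega
  have he1 : e = 1 := Int.eq_one_of_dvd_one hepos hdvd
  subst he1
  constructor
  · norm_num
  · linarith

theorem five_key (d₂ d₃ D : ℚ) (h2 : 0 < d₂) (h3 : 0 < d₃) (hD : 0 < D) (b₂ b₃ ε : ℚ)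
    (hb₂ : b₂ = 1 ∨ b₂ = -1) (hb₃ : b₃ = 1 ∨ b₃ = -1) (hε : ε = 1 ∨ ε = -1)
    (h1 : b₂ * d₂ + b₃ * d₃ = ε * D) (hh : b₂ / d₂ + b₃ / d₃ = 4 * ε / D) :
    d₂ = d₃ ∧ D = 2 * d₂ ∧ b₂ = ε ∧ b₃ = ε := by
  have key : ∀ x y z : ℚ, 0 < x → 0 < y → 0 < z → x + y = z → 1 / x + 1 / y = 4 / z → x = y ∧ z = 2 * x := by
    intro x y z hx hy hz h1 h2
    field_simp at h2
    have h3 : (x - y) ^ 2 = 0 := by
      have : z = x + y := h1.symm
      subst this
      nlinarith
    have h4 : x = y := by nlinarith [pow_eq_zero_iff (two_ne_zero) |>.1 h3]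
    exact ⟨h4, by rw [← h1, ← h4]; ring⟩
  have neg : ∀ x y z : ℚ, 0 < x → 0 < y → 0 < z → x - y = z → 1 / x - 1 / y = 4 / z → False := by
    intro x y z hx hy hz h1 h2
    field_simp at h2
    have : z = x - y := h1.symm
    subst this
    nlinarith [mul_pos hx hy, mul_pos hz hz]
  rcases hb₂ with rfl | rfl <;> rcases hb₃ with rfl | rfl <;> rcases hε with rfl | rfl
  · have := key d₂ d₃ D h2 h3 hD (by linarith) (by ring_nf at hh ⊢; linarith)
    exact ⟨this.1, this.2, rfl, rfl⟩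
  · exfalso; linarith
  · exfalso
    exact neg d₂ d₃ D h2 h3 hD (by linarith) (by ring_nf at hh ⊢; linarith)
  · exfalso
    exact neg d₃ d₂ D h3 h2 hD (by linarith) (by ring_nf at hh ⊢; linarith)
  · exfalso
    exact neg d₃ d₂ D h3 h2 hD (by linarith) (by ring_nf at hh ⊢; linarith)
  · exfalso
    exact neg d₂ d₃ D h2 h3 hD (by linarith) (by ring_nf at hh ⊢; linarith)
  · exfalso; linarith
  · have := key d₂ d₃ D h2 h3 hD (by linarith) (by ring_nf at hh ⊢; linarith)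
    exact ⟨this.1, this.2, rfl, rfl⟩

/-- The main computation with the five characters. -/
theorem five_main (d₁ d₂ d₃ D g : ℚ) (h1 : 0 < d₁) (h2 : 0 < d₂) (h3 : 0 < d₃) (hD : 0 < D) (hg : 0 < g) (h21 : 1 ≤ d₂)
    (b₁ b₂ b₃ ε : ℚ) (hb₁ : b₁ = 1 ∨ b₁ = -1) (hb₂ : b₂ = 1 ∨ b₂ = -1) (hb₃ : b₃ = 1 ∨ b₃ = -1) (hε : ε = 1 ∨ ε = -1)
    (hE4 : 1 + b₁ * d₁ + b₂ * d₂ + b₃ * d₃ = 0)
    (hE3 : 1 + b₁ * d₁ - b₂ * d₂ - b₃ * d₃ + 2 * ε * D = 0)
    (hE5 : g * (1 + b₁ / d₁ - b₂ / d₂ - b₃ / d₃ + 8 * ε / D) = 256)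
    (hE6 : g * (1 + b₁ / d₁ + b₂ / d₂ + b₃ / d₃) = 256) :
    (g * (d₂ + 1) ^ 2 = 128 * d₂ * (2 * d₂ + 1)) ∨ (g * (d₂ - 1) ^ 2 = 128 * d₂ * (2 * d₂ - 1)) := by
  have hg0 : g ≠ 0 := hg.ne'
  have h56 : b₂ / d₂ + b₃ / d₃ = 4 * ε / D := by
    have h5 : (1 + b₁ / d₁ - b₂ / d₂ - b₃ / d₃ + 8 * ε / D) = (1 + b₁ / d₁ + b₂ / d₂ + b₃ / d₃) :=
      mul_left_cancel₀ hg0 (hE5.trans hE6.symm)
    have h6 : 8 * ε / D = 2 * (4 * ε / D) := by ring
    rw [h6] at h5
    linarith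
  have h34 : b₂ * d₂ + b₃ * d₃ = ε * D := by linarith
  obtain ⟨e1, e2, e3, e4⟩ := five_key d₂ d₃ D h2 h3 hD b₂ b₃ ε hb₂ hb₃ hε h34 h56
  subst e1
  subst e2
  subst e3
  subst e4
  have hd : d₂ ≠ 0 := h2.ne'
  rcases hε with rfl | rfl
  · -- ε = 1
    left
    have hb₁d : b₁ * d₁ = -(1 + 2 * d₂) := by linarith
    rcases hb₁ with rfl | rfl
    · exfalso; linarith
    · have hd₁ : d₁ = 2 * d₂ + 1 := by linarith
      subst hd₁
      have hd3 : (2 * d₂ + 1) ≠ 0 := by positivity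
      rw [show (8 : ℚ) * 1 / (2 * d₂) = 4 / d₂ by field_simp; ring] at hE5
      field_simp at hE6
      nlinarith
  · right
    have hb₁d : b₁ * d₁ = 2 * d₂ - 1 := by linarith
    have hd₁ : b₁ = 1 := by
      rcases hb₁ with rfl | rfl
      · rfl
      · exfalso
        have h4 : d₁ = 1 - 2 * d₂ := by linarith
        linarith
    subst hd₁
    have hd₁' : d₁ = 2 * d₂ - 1 := by linarith
    subst hd₁'
    have hd3 : (2 * d₂ - 1) ≠ 0 := h1.ne'
    field_simp at hE6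
    nlinarith

/-- The integer form of the conclusion. -/
theorem five_final (a m : ℤ) (ha : Odd a) (hm : Odd m) (hpos : 0 < a) 
    (h : (8 * m : ℚ) * ((a : ℚ) + 1) ^ 2 = 128 * a * (2 * a + 1) ∨ (8 * m : ℚ) * ((a : ℚ) - 1) ^ 2 = 128 * a * (2 * a - 1)) :
    m = 21 ∨ m = 45 := by
  rcases h with h | h
  · left
    have h1 : m * (a + 1) ^ 2 = 16 * a * (2 * a + 1) := by
      have h2 : ((m * (a + 1) ^ 2 : ℤ) : ℚ) = ((16 * a * (2 * a + 1) : ℤ) : ℚ) := by
        push_cast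
        linarith
      exact_mod_cast h2
    exact (d8_arith_plus a m ha hm hpos h1).2
  · right
    have h1 : m * (a - 1) ^ 2 = 16 * a * (2 * a - 1) := by
      have h2 : ((m * (a - 1) ^ 2 : ℤ) : ℚ) = ((16 * a * (2 * a - 1) : ℤ) : ℚ) := by
        push_cast
        linarith
      exact_mod_cast h2
    exact (d8_arith_minus a m ha hm hpos h1).2

theorem int_sq_one {x : ℤ} (h : x ^ 2 = 1) : x = 1 ∨ x = -1 := by
  have h1 : (x - 1) * (x + 1) = 0 := by ring_nf; linarith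
  rcases mul_eq_zero.1 h1 with h2 | h2
  · left; linarith
  · right; linarith

/-- The computation in the case where the first sign is the positive one. -/
theorem d8_five (bx dx «by» dy bz dz aφ dφ m : ℤ) (hbx : bx ^ 2 = 1) (hby : «by» ^ 2 = 1) (hbz : bz ^ 2 = 1)
    (hdx : 0 < dx) (hdy : 0 < dy) (hdz : 0 < dz) (hdφ : 0 < dφ) (hmpos : 0 < m) (hm : Odd m)
    (hdyo : 2 ∣ dy - «by») (haφ : aφ = 2 ∨ aφ = -2)
    (E3 : 1 + dx * bx - dy * «by» - dz * bz + dφ * aφ = 0)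
    (E4 : 1 + dx * bx + dy * «by» + dz * bz = 0)
    (E5 : (8 * m : ℚ) * (1 + (bx : ℚ) / dx - («by» : ℚ) / dy - (bz : ℚ) / dz + (aφ : ℚ) ^ 3 / dφ) = 256)
    (E6 : (8 * m : ℚ) * (1 + (bx : ℚ) / dx + («by» : ℚ) / dy + (bz : ℚ) / dz) = 256) :
    m = 21 ∨ m = 45 := by
  have hq : ∀ x : ℤ, x ^ 2 = 1 → ((x : ℚ) = 1 ∨ (x : ℚ) = -1) := by
    intro x hx
    rcases int_sq_one hx with h | h
    · left; rw [h]; norm_num
    · right; rw [h]; norm_num
  have hdy1 : (1 : ℚ) ≤ dy := by exact_mod_cast hdy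
  have hcast : ∀ x : ℤ, 0 < x → (0 : ℚ) < x := fun x hx => by exact_mod_cast hx
  obtain ⟨ε, hε, hεφ⟩ : ∃ ε : ℚ, (ε = 1 ∨ ε = -1) ∧ (aφ : ℚ) = 2 * ε := by
    rcases haφ with h | h
    · exact ⟨1, Or.inl rfl, by rw [h]; norm_num⟩
    · exact ⟨-1, Or.inr rfl, by rw [h]; norm_num⟩
  have hε3 : (aφ : ℚ) ^ 3 = 8 * ε := by
    rw [hεφ]
    rcases hε with h | h <;> rw [h] <;> norm_num
  have hE3q : (1 : ℚ) + bx * dx - «by» * dy - bz * dz + 2 * ε * dφ = 0 := by
    have h1 : ((1 + dx * bx - dy * «by» - dz * bz + dφ * aφ : ℤ) : ℚ) = 0 := by rw [E3]; norm_num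
    push_cast at h1
    rw [hεφ] at h1
    linarith
  have hE4q : (1 : ℚ) + bx * dx + «by» * dy + bz * dz = 0 := by
    have h1 : ((1 + dx * bx + dy * «by» + dz * bz : ℤ) : ℚ) = 0 := by rw [E4]; norm_num
    push_cast at h1
    linarith
  have hm8 : (0 : ℚ) < 8 * m := by
    have := hcast m hmpos
    positivity
  rw [hε3] at E5
  have hmain := five_main dx dy dz dφ (8 * m) (hcast _ hdx) (hcast _ hdy) (hcast _ hdz) (hcast _ hdφ) hm8 hdy1
    bx «by» bz ε (hq _ hbx) (hq _ hby) (hq _ hbz) hε hE4q hE3q E5 E6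
  have hodd : Odd dy := by
    have h1 : Odd «by» := by
      rcases int_sq_one hby with h | h <;> rw [h] <;> decide
    obtain ⟨k, hk⟩ := hdyo
    have h2 : dy = 2 * k + «by» := by linarith
    rw [h2]
    exact Even.add_odd ⟨k, by ring⟩ h1
  exact five_final dy m hodd hm hdy hmain

section Sum

variable {ι : Type*} [Fintype ι] [DecidableEq ι]

/-- The combinatorial core: a table of character values with the given orthogonality relations. -/
theorem d8_core (a b d : ι → ℤ) (hd : ∀ i, 0 < d i) (hab : ∀ i, 2 ∣ a i - b i) (hdb : ∀ i, 2 ∣ d i - b i)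
    (i₀ : ι) (h0a : a i₀ = 1) (h0b : b i₀ = 1) (h0d : d i₀ = 1)
    (E0 : ∑ i, a i ^ 2 = 8) (E1 : ∑ i, b i ^ 2 = 4) (E2 : ∑ i, a i * b i = 0)
    (E3 : ∑ i, d i * a i = 0) (E4 : ∑ i, d i * b i = 0) (m : ℤ) (hmpos : 0 < m) (hm : Odd m)
    (E5 : (8 * m : ℚ) * ∑ i, (a i : ℚ) ^ 3 / (d i : ℚ) = 256)
    (E6 : (8 * m : ℚ) * ∑ i, (a i : ℚ) ^ 2 * (b i : ℚ) / (d i : ℚ) = 256) :
    m = 21 ∨ m = 45 := by
  classical
  -- values of `b`
  have hbsq : ∀ i, b i ≠ 0 → b i ^ 2 = 1 := by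
    intro i hi
    by_cases hii : i = i₀
    · rw [hii, h0b]; norm_num
    · have h1 : ∑ j ∈ ({i, i₀} : Finset ι), b j ^ 2 ≤ ∑ j, b j ^ 2 :=
        Finset.sum_le_sum_of_subset_of_nonneg (Finset.subset_univ _) (fun j _ _ => sq_nonneg _)
      rw [Finset.sum_pair hii, h0b, E1] at h1
      have h2 : 0 < b i ^ 2 := by positivity
      have h3 : b i ^ 2 ≤ 3 := by linarith
      have h4 : -1 ≤ b i ∧ b i ≤ 1 := by
        constructor <;> nlinarith
      have h5 : b i = 1 ∨ b i = -1 := by omega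
      rcases h5 with h | h <;> rw [h] <;> norm_num
  set A : Finset ι := Finset.univ.filter (fun i => b i ≠ 0) with hA
  have hmemA : ∀ i, i ∈ A ↔ b i ≠ 0 := fun i => by simp [hA]
  have hAcard : A.card = 4 := by
    have h1 : ∑ i ∈ A, b i ^ 2 = ∑ i, b i ^ 2 := by
      apply Finset.sum_filter_of_ne
      intro i _ hi h2
      apply hi
      rw [h2]; norm_num
    have h2 : ∑ i ∈ A, b i ^ 2 = (A.card : ℤ) := by
      rw [Finset.sum_congr rfl (fun i hi => hbsq i ((hmemA i).1 hi))]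
      simp
    have h3 : (A.card : ℤ) = 4 := by rw [← h2, h1, E1]
    exact_mod_cast h3
  -- values of `a` on `A`
  have hale : ∀ i, a i ^ 2 ≤ 8 := by
    intro i
    rw [← E0]
    exact Finset.single_le_sum (f := fun j => a j ^ 2) (fun j _ => sq_nonneg _) (Finset.mem_univ i)
  have hasq : ∀ i, b i ≠ 0 → a i ^ 2 = 1 := by
    intro i hi
    have h1 := int_sq_one (hbsq i hi)
    have h2 := hab i
    have h3 := hale i
    have h4 : -2 ≤ a i ∧ a i ≤ 2 := by
      constructor <;> nlinarith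
    have h5 : a i = 1 ∨ a i = -1 := by omega
    rcases h5 with h | h <;> rw [h] <;> norm_num
  -- outside `A`
  set B : Finset ι := Finset.univ.filter (fun i => b i = 0 ∧ a i ≠ 0) with hB
  have hmemB : ∀ i, i ∈ B ↔ b i = 0 ∧ a i ≠ 0 := fun i => by simp [hB]
  have hdisjAB : Disjoint A B := by
    rw [Finset.disjoint_left]
    intro i h1 h2
    exact (hmemA i).1 h1 ((hmemB i).1 h2).1
  have hsumB : ∑ i ∈ B, a i ^ 2 = 4 := by
    have h1 : ∑ i ∈ A ∪ B, a i ^ 2 = ∑ i, a i ^ 2 := by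
      apply Finset.sum_subset (Finset.subset_univ _)
      intro i _ hi
      by_contra h2
      apply hi
      rw [Finset.mem_union]
      by_cases hb : b i = 0
      · right
        exact (hmemB i).2 ⟨hb, fun h3 => h2 (by rw [h3]; norm_num)⟩
      · left
        exact (hmemA i).2 hb
    rw [Finset.sum_union hdisjAB, E0] at h1
    have h2 : ∑ i ∈ A, a i ^ 2 = 4 := by
      rw [Finset.sum_congr rfl (fun i hi => hasq i ((hmemA i).1 hi))]
      simp [hAcard]
    linarith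
  have hBsq : ∀ i ∈ B, a i ^ 2 = 4 := by
    intro i hi
    obtain ⟨h1, h2⟩ := (hmemB i).1 hi
    have h3 := hab i
    rw [h1, sub_zero] at h3
    have h4 : a i ^ 2 ≤ 4 := by
      rw [← hsumB]
      exact Finset.single_le_sum (f := fun j => a j ^ 2) (fun j _ => sq_nonneg _) hi
    have h5 : -2 ≤ a i ∧ a i ≤ 2 := by
      constructor <;> nlinarith
    have h6 : a i = 2 ∨ a i = -2 := by omega
    rcases h6 with h | h <;> rw [h] <;> norm_num
  have hBcard : B.card = 1 := by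
    have h1 : ∑ i ∈ B, a i ^ 2 = 4 * (B.card : ℤ) := by
      rw [Finset.sum_congr rfl hBsq]
      simp
      ring
    have h2 : (B.card : ℤ) = 1 := by linarith
    exact_mod_cast h2
  obtain ⟨φ, hφ⟩ := Finset.card_eq_one.1 hBcard
  have hφB : φ ∈ B := by rw [hφ]; simp
  obtain ⟨hφb, hφa⟩ := (hmemB φ).1 hφB
  have haφ : a φ = 2 ∨ a φ = -2 := by
    have h1 := hBsq φ hφB
    have h2 : (a φ - 2) * (a φ + 2) = 0 := by ring_nf; linarith
    rcases mul_eq_zero.1 h2 with h3 | h3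
    · left; linarith
    · right; linarith
  have hi₀A : i₀ ∈ A := (hmemA i₀).2 (by rw [h0b]; norm_num)
  have herase : (A.erase i₀).card = 3 := by
    rw [Finset.card_erase_of_mem hi₀A, hAcard]
  obtain ⟨x, y, z, hxy, hxz, hyz, hxyz⟩ := Finset.card_eq_three.1 herase
  have hxA : x ∈ A.erase i₀ := by rw [hxyz]; simp
  have hyA : y ∈ A.erase i₀ := by rw [hxyz]; simp
  have hzA : z ∈ A.erase i₀ := by rw [hxyz]; simp
  have hA5 : A = insert i₀ {x, y, z} := by
    rw [← hxyz, Finset.insert_erase hi₀A]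
  have hφA : φ ∉ A := fun h => (Finset.disjoint_left.1 hdisjAB h hφB)
  have hsum : ∀ {R : Type} [AddCommMonoid R] (f : ι → R), (∀ i, a i = 0 → b i = 0 → f i = 0) →
      ∑ i, f i = f i₀ + (f x + (f y + f z)) + f φ := by
    intro R _ f hf
    have h1 : ∑ i ∈ A ∪ {φ}, f i = ∑ i, f i := by
      apply Finset.sum_subset (Finset.subset_univ _)
      intro i _ hi
      have hib : b i = 0 := by
        by_contra h
        exact hi (Finset.mem_union_left _ ((hmemA i).2 h))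
      have hia : a i = 0 := by
        by_contra h
        have : i ∈ B := (hmemB i).2 ⟨hib, h⟩
        rw [hφ] at this
        exact hi (Finset.mem_union_right _ this)
      exact hf i hia hib
    rw [← h1, Finset.sum_union (by simpa using hφA), Finset.sum_singleton, hA5, Finset.sum_insert, Finset.sum_insert,
      Finset.sum_pair hyz]
    · simp [hxy, hxz]
    · intro h
      have : i₀ ∈ A.erase i₀ := by rw [hxyz]; exact h
      simp at this
  have hbx := hbsq x (Finset.ne_of_mem_erase hxA |> fun _ => (hmemA x).1 (Finset.mem_of_mem_erase hxA))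
  have hby := hbsq y ((hmemA y).1 (Finset.mem_of_mem_erase hyA))
  have hbz := hbsq z ((hmemA z).1 (Finset.mem_of_mem_erase hzA))
  have hax := hasq x ((hmemA x).1 (Finset.mem_of_mem_erase hxA))
  have hay := hasq y ((hmemA y).1 (Finset.mem_of_mem_erase hyA))
  have haz := hasq z ((hmemA z).1 (Finset.mem_of_mem_erase hzA))
  -- the reduced relations
  have R2 : 1 + a x * b x + a y * b y + a z * b z = 0 := by
    have := hsum (fun i => a i * b i) (fun i h1 h2 => by simp [h1])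
    rw [E2] at this
    simp only [h0a, h0b, hφb] at this
    linarith
  have R3 : 1 + d x * a x + d y * a y + d z * a z + d φ * a φ = 0 := by
    have := hsum (fun i => d i * a i) (fun i h1 h2 => by simp [h1])
    rw [E3] at this
    simp only [h0a, h0d] at this
    linarith
  have R4 : 1 + d x * b x + d y * b y + d z * b z = 0 := by
    have := hsum (fun i => d i * b i) (fun i h1 h2 => by simp [h2])
    rw [E4] at this
    simp only [h0b, h0d, hφb] at this
    linarith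
  have R5 : (8 * m : ℚ) * (1 + (a x : ℚ) ^ 3 / d x + (a y : ℚ) ^ 3 / d y + (a z : ℚ) ^ 3 / d z + (a φ : ℚ) ^ 3 / d φ) = 256 := by
    have := hsum (fun i => (a i : ℚ) ^ 3 / (d i : ℚ)) (fun i h1 h2 => by simp [h1])
    rw [this] at E5
    simp only [h0a, h0d, Int.cast_one, one_pow, div_one] at E5
    rw [← E5]
    congr 1
    ring
  have R6 : (8 * m : ℚ) * (1 + (a x : ℚ) ^ 2 * b x / d x + (a y : ℚ) ^ 2 * b y / d y + (a z : ℚ) ^ 2 * b z / d z) = 256 := by
    have := hsum (fun i => (a i : ℚ) ^ 2 * (b i : ℚ) / (d i : ℚ)) (fun i h1 h2 => by simp [h2])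
    rw [this] at E6
    simp only [h0a, h0b, h0d, hφb, Int.cast_one, Int.cast_zero, one_pow, div_one, mul_zero, zero_div, add_zero, mul_one] at E6
    rw [← E6]
    congr 1
    ring
  -- signs
  have hsq : ∀ u : ℤ, u ^ 2 = 1 → ((u : ℚ)) ^ 2 = 1 := fun u hu => by exact_mod_cast hu
  have hcube : ∀ u : ℤ, u ^ 2 = 1 → ((u : ℚ)) ^ 3 = (u : ℚ) := by
    intro u hu
    have := hsq u hu
    calc (u : ℚ) ^ 3 = ((u : ℚ) ^ 2) * (u : ℚ) := by ring
      _ = (u : ℚ) := by rw [this, one_mul]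
  have hsign : ∀ i, a i ^ 2 = 1 → b i ^ 2 = 1 → a i = b i ∨ a i = - b i := by
    intro i h1 h2
    rcases int_sq_one h1 with h3 | h3 <;> rcases int_sq_one h2 with h4 | h4 <;> rw [h3, h4] <;> norm_num
  have hb2 : ∀ u : ℤ, u ^ 2 = 1 → u * u = 1 := fun u hu => by rw [← pow_two]; exact hu
  -- simplify the relations with `a² = 1`
  rw [hcube _ hax, hcube _ hay, hcube _ haz] at R5
  rw [hsq _ hax, hsq _ hay, hsq _ haz] at R6
  simp only [one_mul] at R6
  rcases hsign x hax hbx with sx | sx <;> rcases hsign y hay hby with sy | sy <;> rcases hsign z haz hbz with sz | sz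
  · exfalso
    rw [sx, sy, sz, hb2 _ hbx, hb2 _ hby, hb2 _ hbz] at R2
    omega
  · exfalso
    rw [sx, sy, sz, neg_mul, hb2 _ hbx, hb2 _ hby, hb2 _ hbz] at R2
    omega
  · exfalso
    rw [sx, sy, sz, neg_mul, hb2 _ hbx, hb2 _ hby, hb2 _ hbz] at R2
    omega
  · -- `x` is the positive one
    rw [sx, sy, sz] at R3 R5
    push_cast at R5
    apply d8_five (b x) (d x) (b y) (d y) (b z) (d z) (a φ) (d φ) m hbx hby hbz (hd x) (hd y) (hd z) (hd φ) hmpos hm (hdb y) haφ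
    · linarith
    · linarith
    · rw [← R5]; congr 1; ring
    · exact R6
  · exfalso
    rw [sx, sy, sz, neg_mul, hb2 _ hbx, hb2 _ hby, hb2 _ hbz] at R2
    omega
  · -- `y` is the positive one
    rw [sx, sy, sz] at R3 R5
    push_cast at R5
    apply d8_five (b y) (d y) (b x) (d x) (b z) (d z) (a φ) (d φ) m hby hbx hbz (hd y) (hd x) (hd z) (hd φ) hmpos hm (hdb x) haφ
    · linarith
    · linarith
    · rw [← R5]; congr 1; ring
    · rw [← R6]; congr 1; ring
  · -- `z` is the positive one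
    rw [sx, sy, sz] at R3 R5
    push_cast at R5
    apply d8_five (b z) (d z) (b x) (d x) (b y) (d y) (a φ) (d φ) m hbz hbx hby (hd z) (hd x) (hd y) (hd φ) hmpos hm (hdb x) haφ
    · linarith
    · linarith
    · rw [← R5]; congr 1; ring
    · rw [← R6]; congr 1; ring
  · exfalso
    rw [sx, sy, sz, neg_mul, neg_mul, neg_mul, hb2 _ hbx, hb2 _ hby, hb2 _ hbz] at R2
    omega

end Sum

end CfsgLib.ZS
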