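import Cfsg.Agent.Lib.Char.Count
import Cfsg.Agent.Lib.Char.Diag
import Cfsg.Agent.Lib.ZStar.D8Core

/-! # Values of characters at real elements of order four -/

set_option autoImplicit false
set_option linter.unusedSectionVars false
set_option linter.unusedVariables false

namespace CfsgLib.ZS

open Cfsg CfsgLib.Char
open scoped ComplexConjugate

theorem fourth_root_cases {μ : ℂ} (h : μ ^ 4 = 1) :
    ∃ x y : ℤ, μ = x + y * Complex.I ∧ x ^ 2 + y ^ 2 = 1 ∧ x * y = 0 := by
  have h1 : (μ ^ 2 - 1) * (μ ^ 2 + 1) = 0 := by ring_nf; rw [h]; ring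
  rcases mul_eq_zero.1 h1 with h2 | h2
  · have h3 : (μ - 1) * (μ + 1) = 0 := by ring_nf; linear_combination h2
    rcases mul_eq_zero.1 h3 with h4 | h4
    · exact ⟨1, 0, by push_cast; linear_combination h4, by norm_num, by norm_num⟩
    · exact ⟨-1, 0, by push_cast; linear_combination h4, by norm_num, by norm_num⟩
  · have h3 : (μ - Complex.I) * (μ + Complex.I) = 0 := by
      have : (μ - Complex.I) * (μ + Complex.I) = μ ^ 2 - Complex.I ^ 2 := by ring
      rw [this, Complex.I_sq]
      linear_combination h2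
    rcases mul_eq_zero.1 h3 with h4 | h4
    · exact ⟨0, 1, by push_cast; linear_combination h4, by norm_num, by norm_num⟩
    · exact ⟨0, -1, by push_cast; linear_combination h4, by norm_num, by norm_num⟩

/-- A character at a real element `g` with `g⁴ = 1`: the values at `1`, `g`, `g²` are integers, all congruent
modulo two. -/
theorem char_values_of_real_four {G : Type*} [Group G] [Finite G] {χ : G → ℂ} (hχ : IsCharacter G χ) (g : G)
    (h4 : g ^ 4 = 1) (hreal : χ g⁻¹ = χ g) :
    ∃ a b d : ℤ, χ (g ^ 2) = a ∧ χ g = b ∧ χ 1 = d ∧ 0 ≤ d ∧ 2 ∣ a - b ∧ 2 ∣ d - b := by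
  obtain ⟨n, ρ, rfl⟩ := hχ
  obtain ⟨m, B, μ, h1, -⟩ := rep_eigenbasis ρ g
  have hpow : ∀ (k : ℕ) (i : Fin m), ρ (g ^ k) (B i) = μ i ^ k • B i := by
    intro k i
    induction k with
    | zero => simp
    | succ k ih =>
      rw [pow_succ, map_mul, Module.End.mul_apply, h1, map_smul, ih, smul_smul, pow_succ]
      ring_nf
  have hμ4 : ∀ i, μ i ^ 4 = 1 := by
    intro i
    have h3 := hpow 4 i
    rw [h4, map_one, Module.End.one_apply] at h3
    have h5 : (μ i ^ 4 - 1) • B i = 0 := by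
      rw [sub_smul, one_smul, ← h3, sub_self]
    exact sub_eq_zero.1 ((smul_eq_zero.1 h5).resolve_right (B.ne_zero i))
  choose x y hμ hxy hxy0 using fun i => fourth_root_cases (hμ4 i)
  have hev : ∀ z : ℤ, (2 : ℤ) ∣ z ^ 2 - z := fun z => by
    rw [show z ^ 2 - z = z * (z - 1) by ring]
    exact even_iff_two_dvd.1 (Int.even_mul_pred_self z)
  have hχ1 : ρ.character g = ∑ i, μ i := character_eq_sum ρ g B μ h1
  have hχ2 : ρ.character (g ^ 2) = ∑ i, μ i ^ 2 := character_eq_sum ρ (g ^ 2) B (fun i => μ i ^ 2) (fun i => hpow 2 i)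
  have hχ0 : ρ.character 1 = (m : ℂ) := by
    have := character_eq_sum ρ (1 : G) B (fun _ => 1) (fun i => by simp)
    simpa using this
  have hχ3 : ρ.character g = ((∑ i, x i : ℤ) : ℂ) + ((∑ i, y i : ℤ) : ℂ) * Complex.I := by
    rw [hχ1, Finset.sum_congr rfl (fun i _ => hμ i)]
    push_cast
    rw [Finset.sum_add_distrib, Finset.sum_mul]
  have hy0 : ∑ i, y i = 0 := by
    have h5 : (starRingEnd ℂ) (ρ.character g) = ρ.character g := by
      rw [← character_inv, hreal]
    rw [hχ3] at h5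
    have h6 := congrArg Complex.im h5
    simp at h6
    have h7 : ((∑ i, y i : ℤ) : ℝ) = 0 := by
      push_cast
      linarith
    exact_mod_cast h7
  refine ⟨∑ i, (x i ^ 2 - y i ^ 2), ∑ i, x i, (m : ℤ), ?_, ?_, ?_, by positivity, ?_, ?_⟩
  · rw [hχ2]
    push_cast
    refine Finset.sum_congr rfl (fun i _ => ?_)
    rw [hμ i]
    have h5 := hxy0 i
    have h6 : (x i : ℂ) * y i = 0 := by exact_mod_cast h5
    have : ((x i : ℂ) + y i * Complex.I) ^ 2 = (x i : ℂ) ^ 2 + 2 * ((x i : ℂ) * y i) * Complex.I + (y i : ℂ) ^ 2 * Complex.I ^ 2 := by ring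
    rw [this, h6, Complex.I_sq]
    ring
  · rw [hχ3, hy0]
    simp
  · rw [hχ0]
    simp
  · have h5 : ∑ i, (x i ^ 2 - y i ^ 2) - ∑ i, x i = ∑ i, ((x i ^ 2 - x i) - (y i ^ 2 - y i)) - ∑ i, y i := by
      rw [← Finset.sum_sub_distrib, ← Finset.sum_sub_distrib]
      refine Finset.sum_congr rfl (fun i _ => by ring)
    rw [h5, hy0, sub_zero]
    apply Finset.dvd_sum
    intro i _
    apply dvd_sub
    · exact hev _
    · exact hev _
  · have hm : (m : ℤ) = ∑ i, (x i ^ 2 + y i ^ 2) := by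
      rw [Finset.sum_congr rfl (fun i _ => hxy i)]
      simp
    have h5 : (m : ℤ) - ∑ i, x i = ∑ i, ((x i ^ 2 - x i) + (y i ^ 2 - y i)) + ∑ i, y i := by
      rw [hm, ← Finset.sum_sub_distrib, ← Finset.sum_add_distrib]
      refine Finset.sum_congr rfl (fun i _ => by ring)
    rw [h5, hy0, add_zero]
    apply Finset.dvd_sum
    intro i _
    apply dvd_add
    · exact hev _
    · exact hev _

end CfsgLib.ZS
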